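import Cfsg.Agent.H544.L16.EndG
import Cfsg.Agent.H413.L16.Cz

/-!
# S5916: the log vector `cz` of `τ` (helper547)

* `cz_sq` : `[cz, [cz, v]] = 0`;
* `Fp_cz` : `Fp cz = cz`;
* `Fp_surj` : `Fp` is surjective;
* `sum_hr_ne` : `∑ h_{γ_j} ≠ 0`.
-/

set_option autoImplicit false
set_option maxRecDepth 100000

namespace Cfsg.Agent.H547.L16.Log

open Matrix Cfsg Cfsg.Lie Cfsg.Lie.ChevalleyDatum
open Cfsg.Agent.ChevalleyStructure
open Cfsg.Agent.H939.L64 (KK E2 LK em aK fr brK)
open Cfsg.Agent.H876.L64 (aK_mul aK_one aK_inv aK_inv' aK_add aK_smul aK_brK two_zero)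
open Cfsg.Agent.H413.L16
open Cfsg.Agent.H939.L16
open Cfsg.Agent.H544.L16 (dec hv_dec br_coord tgs Fp_hr Fp_zero wi_lt wi_neg)

theorem bM (u v : LK) : brK u v = brM u v := rfl

theorem br_add_l (u v w : LK) : brK (u + v) w = brK u w + brK v w := by
  rw [bM, bM, bM, map_add]; rfl

theorem br_add_r (u v w : LK) : brK u (v + w) = brK u v + brK u w := by
  rw [bM, bM, bM, map_add]

theorem br_zero_r (u : LK) : brK u 0 = 0 := by rw [bM, map_zero]

theorem br_zero_l (u : LK) : brK 0 u = 0 := by rw [bM, map_zero]; rfl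

/-! ### the square of `ad e_r` -/

theorem er_sq {r : ℕ} (h : r < 240) (hk : (tgs r).all (fun x => decide (x ≠ 239 - r)) = true) (v : LK) :
    brK (er r) (brK (er r) v) = 0 := by
  have hk' : ∀ x ∈ tgs r, x ≠ 239 - r := fun x hx => of_decide_eq_true (List.all_eq_true.1 hk x hx)
  have hn : r ≠ 239 - r := by omega
  have h0 : brK (er r) (er r) = 0 := by rw [br_rr h h hn, tg_self h, er_ge le_rfl]
  have h1 : aK (xr r 1) (aK (xr r 1) v) = v := by
    rw [← aK_mul, xr_add h]
    have : (1 : KK) + 1 = 0 := by rw [one_add_one_eq_two]; exact two_zero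
    rw [this, xr_zero h, aK_one]
  have h2 := br_coord h h hn hk' v
  have h3 : ∀ (c : KK) w, brK (er r) (c • w) = c • brK (er r) w := fun c w => by rw [bM, bM, map_smul]
  rw [aK_xr h 1 v, aK_xr h 1] at h1
  simp only [Pi.add_apply, Pi.smul_apply, br_add_r, h3, h0, h2, er_inr, one_smul, one_pow, one_mul, smul_zero, add_zero] at h1
  rw [if_neg hn, smul_eq_mul, mul_zero, add_zero] at h1
  generalize v (Sum.inr ⟨239 - r, _⟩) • er r = w at h1
  generalize brK (er r) (brK (er r) v) = z at h1 ⊢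
  have h4 : v + brK (er r) v + w + (brK (er r) v + z) + w = v + z + (brK (er r) v + brK (er r) v) + (w + w) := by abel
  rw [h4, add_self', add_self', add_zero, add_zero] at h1
  exact add_eq_left.1 h1

theorem sq_add {x y : LK} (hx : ∀ v, brK x (brK x v) = 0) (hy : ∀ v, brK y (brK y v) = 0)
    (hxy : brK x y = 0) (v : LK) : brK (x + y) (brK (x + y) v) = 0 := by
  have h : brK y (brK x v) = brK x (brK y v) := by rw [jac x y v, hxy, br_zero_l, zero_add]
  rw [br_add_l, br_add_l, br_add_r, br_add_r, hx, hy, h, zero_add, add_zero, add_self']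

/-- the pieces of `cz` -/
noncomputable def Cr (r : ℕ) : LK := hr r + er r + er (239 - r)

theorem Cr_sq {r : ℕ} (h : r < 240) (hk : (tgs r).all (fun x => decide (x ≠ 239 - r)) = true) (v : LK) :
    brK (Cr r) (brK (Cr r) v) = 0 := by
  have h' : 239 - r < 240 := by omega
  have e : 239 - (239 - r) = r := by omega
  have h1 : aK (xr (239 - r) 1) (er r) = Cr r := by
    have := aK_xr_neg h' 1
    rw [e] at this
    rw [this, one_smul, one_pow, one_smul, hr_neg h]
    unfold Cr
    abel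
  have h2 : brK (Cr r) (brK (Cr r) v) = aK (xr (239 - r) 1) (brK (er r) (brK (er r) (aK (xr (239 - r) 1)⁻¹ v))) := by
    rw [aK_brK, aK_brK, h1, aK_inv]
  rw [h2, er_sq h hk]
  exact Cfsg.Agent.H876.L64.aK_zero _

/-- the brackets of two orthogonal triples -/
def okT (r s : ℕ) : Bool := decide (r < 240) && decide (s < 240) && decide (s ≠ 239 - r) && decide (s ≠ r) &&
  decide (tg r s = 240) && decide (tg r (239 - s) = 240) && decide (tg (239 - r) s = 240) &&
  decide (tg (239 - r) (239 - s) = 240)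

theorem Cr_comm {r s : ℕ} (h : okT r s = true) : brK (Cr r) (Cr s) = 0 := by
  unfold okT at h
  simp only [Bool.and_eq_true, decide_eq_true_eq] at h
  obtain ⟨⟨⟨⟨⟨⟨⟨h1, h2⟩, h3⟩, h4⟩, h5⟩, h6⟩, h7⟩, h8⟩ := h
  have h1' : 239 - r < 240 := by omega
  have h2' : 239 - s < 240 := by omega
  have a1 : brK (er r) (er s) = 0 := by rw [br_rr h1 h2 h3, h5, er_ge le_rfl]
  have a2 : brK (er r) (er (239 - s)) = 0 := by rw [br_rr h1 h2' (by omega), h6, er_ge le_rfl]
  have a3 : brK (er (239 - r)) (er s) = 0 := by rw [br_rr h1' h2 (by omega), h7, er_ge le_rfl]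
  have a4 : brK (er (239 - r)) (er (239 - s)) = 0 := by rw [br_rr h1' h2' (by omega), h8, er_ge le_rfl]
  have b : ∀ w, brK (er r) w = 0 → brK (er (239 - r)) w = 0 → brK (hr r) w = 0 := by
    intro w k1 k2
    have := jac (er r) (er (239 - r)) w
    rw [br_neg h1, k2, k1, br_zero_r, br_zero_r, add_zero] at this
    exact this.symm
  have c : ∀ w, brK w (er s) = 0 → brK w (er (239 - s)) = 0 → brK w (hr s) = 0 := by
    intro w k1 k2
    have := jac w (er s) (er (239 - s))
    rw [br_neg h2, k1, k2, br_zero_r, br_zero_l, add_zero] at this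
    exact this
  have d1 := b _ a1 a3
  have d2 := b _ a2 a4
  have d3 := c _ a1 a2
  have d4 := c _ a3 a4
  have d5 := c _ d1 d2
  unfold Cr
  simp only [br_add_l, br_add_r, a1, a2, a3, a4, d1, d2, d3, d4, d5, add_zero]

theorem cz_Cr : cz = Cr 152 + Cr 159 + Cr 226 + Cr 239 := by rw [cz_eq]; rfl

/-- **`(ad cz)² = 0`** -/
theorem cz_sq (v : LK) : brK cz (brK cz v) = 0 := by
  have k1 : brK (Cr 152) (Cr 159) = 0 := Cr_comm (by decide +kernel)
  have k2 : brK (Cr 152) (Cr 226) = 0 := Cr_comm (by decide +kernel)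
  have k3 : brK (Cr 152) (Cr 239) = 0 := Cr_comm (by decide +kernel)
  have k4 : brK (Cr 159) (Cr 226) = 0 := Cr_comm (by decide +kernel)
  have k5 : brK (Cr 159) (Cr 239) = 0 := Cr_comm (by decide +kernel)
  have k6 : brK (Cr 226) (Cr 239) = 0 := Cr_comm (by decide +kernel)
  have s1 : ∀ v, brK (Cr 152) (brK (Cr 152) v) = 0 := Cr_sq (by norm_num) (by decide +kernel)
  have s2 : ∀ v, brK (Cr 159) (brK (Cr 159) v) = 0 := Cr_sq (by norm_num) (by decide +kernel)
  have s3 : ∀ v, brK (Cr 226) (brK (Cr 226) v) = 0 := Cr_sq (by norm_num) (by decide +kernel)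
  have s4 : ∀ v, brK (Cr 239) (brK (Cr 239) v) = 0 := Cr_sq (by norm_num) (by decide +kernel)
  rw [cz_Cr]
  exact sq_add (sq_add (sq_add s1 s2 k1) s3 (by rw [br_add_l, k2, k4, add_zero])) s4
    (by rw [br_add_l, br_add_l, k3, k5, k6, add_zero, add_zero]) v

/-! ### the Frobenius map -/

section Frob

variable {Fp : LK → LK} {ta : LK →ₗ[KK] LK}

theorem Fp_Cr (O : Ops Fp ta) {r s : ℕ} (h : r < 240) (h1 : wi r = s) (h2 : wi (239 - r) = 239 - s) :
    Fp (Cr r) = Cr s := by
  unfold Cr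
  rw [O.add, O.add, Fp_hr O h, O.er r h, O.er (239 - r) (by omega), h1, h2]

theorem Fp_cz (O : Ops Fp ta) : Fp cz = cz := by
  have e1 : wi 152 = 159 := by decide +kernel
  have e2 : wi 159 = 226 := by decide +kernel
  have e3 : wi 226 = 239 := by decide +kernel
  have e4 : wi 239 = 87 := by decide +kernel
  have f1 : wi (239 - 152) = 239 - 159 := by decide +kernel
  have f2 : wi (239 - 159) = 239 - 226 := by decide +kernel
  have f3 : wi (239 - 226) = 239 - 239 := by decide +kernel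
  have f4 : wi (239 - 239) = 239 - 87 := by decide +kernel
  have h87 : Cr 87 = Cr 152 := by
    unfold Cr
    have : hr 87 = hr 152 := hr_neg (r := 152) (by norm_num)
    rw [this]
    show hr 152 + er 87 + er 152 = hr 152 + er 152 + er 87
    abel
  rw [cz_Cr, O.add, O.add, O.add, Fp_Cr O (by norm_num) e1 f1, Fp_Cr O (by norm_num) e2 f2, Fp_Cr O (by norm_num) e3 f3,
    Fp_Cr O (by norm_num) e4 f4, h87]
  abel

/-- the range of `Fp` -/
noncomputable def Rng (O : Ops Fp ta) : Submodule KK LK where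
  carrier := Set.range Fp
  zero_mem' := ⟨0, Fp_zero O⟩
  add_mem' := by
    rintro _ _ ⟨u, rfl⟩ ⟨v, rfl⟩
    exact ⟨u + v, O.add u v⟩
  smul_mem' := by
    rintro c _ ⟨u, rfl⟩
    obtain ⟨d, hd⟩ := IsAlgClosed.exists_pow_nat_eq c (n := 2) (by norm_num)
    exact ⟨d • u, by rw [O.smul, hd]⟩

theorem wi_surj {s : ℕ} (hs : s < 240) : ∃ r < 240, wi r = s := by
  have h : ((List.range 240).all fun s => (List.range 240).any fun r => decide (wi r = s)) = true := by decide +kernel
  obtain ⟨r, h1, h2⟩ := List.any_eq_true.1 (List.all_eq_true.1 h s (List.mem_range.2 hs))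
  exact ⟨r, List.mem_range.1 h1, of_decide_eq_true h2⟩

theorem Fp_surj (O : Ops Fp ta) : Function.Surjective Fp := by
  intro v
  have h1 : ∀ s < 240, er s ∈ Rng O := by
    intro s hs
    obtain ⟨r, hr1, rfl⟩ := wi_surj hs
    exact ⟨er r, O.er r hr1⟩
  have h2 : ∀ s < 240, Cfsg.Agent.H413.L16.hr s ∈ Rng O := by
    intro s hs
    obtain ⟨r, hr1, rfl⟩ := wi_surj hs
    exact ⟨_, Fp_hr O hr1⟩
  have h3 : v ∈ Rng O := by
    rw [dec v, hv_dec]
    exact (Rng O).add_mem ((Rng O).sum_mem fun i _ => (Rng O).smul_mem _ (h2 _ (six_lt _)))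
      ((Rng O).sum_mem fun s _ => (Rng O).smul_mem _ (h1 _ (lt_of_lt_of_eq s.2 nr)))
  exact h3

end Frob

/-- `∑ h_{γ_j} ≠ 0` -/
theorem sum_hr_ne : hr 152 + hr 159 + hr 226 + hr 239 ≠ 0 := by
  intro h
  have h1 : ((List.range 8).any fun i => decide ((Columns.cor chevE8 152 i + Columns.cor chevE8 159 i +
      Columns.cor chevE8 226 i + Columns.cor chevE8 239 i) % 2 ≠ 0)) = true := by decide +kernel
  obtain ⟨i, hi, h2⟩ := List.any_eq_true.1 h1
  have hi' : i < chevE8.rank := by rw [rk8]; exact List.mem_range.1 hi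
  have h3 := congrFun h (Sum.inl ⟨i, hi'⟩)
  have h4 : ((Columns.cor chevE8 152 i + Columns.cor chevE8 159 i + Columns.cor chevE8 226 i +
      Columns.cor chevE8 239 i : ℤ) : KK) = 0 := by
    push_cast
    exact h3
  rw [cast_odd (of_decide_eq_true h2)] at h4
  exact one_ne_zero h4

end Cfsg.Agent.H547.L16.Log
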